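import Cfsg.Agent.H385.RC.Dec

/-!
# S3510, symplectic groups in characteristic two, dimension four: elements of odd order (helper957)

`odd_struct` : an isometry `g ≠ 1` of odd order of a symplectic space of dimension four commutes with a self-adjoint `a`
with irreducible minimal polynomial of degree `≥ 2`, or preserves a decomposition in nondegenerate planes.
-/

set_option autoImplicit false
set_option linter.unusedVariables false
set_option linter.unusedSectionVars false

namespace Cfsg.Agent.H957.RC

open Cfsg Cfsg.Agent.H385.RC Cfsg.Agent.H520.RC Module Polynomial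

section

variable {F V G : Type*} [Field F] [AddCommGroup V] [Module F V] [FiniteDimensional F V] [Group G]
  [DistribMulAction G V] {B : LinearMap.BilinForm F V} {N : Subgroup G}

/-- a self-adjoint map stays self-adjoint under polynomials -/
theorem aeval_adj {a : V →ₗ[F] V} (hadj : ∀ u v, B (a u) v = B u (a v)) (p : F[X]) (u v : V) :
    B (aeval a p u) v = B u (aeval a p v) := by
  induction p using Polynomial.induction_on' generalizing u v with
  | add p q hp hq => rw [map_add, LinearMap.add_apply, LinearMap.add_apply, map_add, LinearMap.add_apply, map_add, hp, hq]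
  | monomial n c =>
    have h1 : ∀ (n : ℕ) (u v : V), B ((a ^ n) u) v = B u ((a ^ n) v) := by
      intro n
      induction n with
      | zero => intro u v; rfl
      | succ n ih => intro u v; rw [pow_succ, Module.End.mul_apply, ih, hadj, ← Module.End.mul_apply, ← pow_succ']; rfl
    rw [aeval_monomial, Module.algebraMap_end_eq_smul_id]
    change B (c • (a ^ n) u) v = B u (c • (a ^ n) v)
    rw [map_smul, map_smul, LinearMap.smul_apply, h1]

/-- the plane spanned by `v`, `w` with `B v w ≠ 0` is nondegenerate of dimension two -/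
theorem plane_of_pair (h : Ev B N) {v w : V} (hvw : B v w ≠ 0) :
    NAlt (B.restrict (Submodule.span F {v, w})) ∧ finrank F (Submodule.span F ({v, w} : Set V)) = 2 := by
  have hwv : B w v ≠ 0 := by rwa [h.symm]
  refine ⟨⟨fun x => h.self _, ?_⟩, ?_⟩
  · rintro ⟨x, hx⟩ hx0
    obtain ⟨a, b, rfl⟩ := Submodule.mem_span_pair.1 hx
    have h1 : B (a • v + b • w) w = 0 := hx0 ⟨w, Submodule.subset_span (by simp)⟩
    have h2 : B (a • v + b • w) v = 0 := hx0 ⟨v, Submodule.subset_span (by simp)⟩
    simp only [map_add, map_smul, LinearMap.add_apply, LinearMap.smul_apply, h.self, smul_eq_mul, mul_zero, add_zero,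
      zero_add] at h1 h2
    have ha : a = 0 := (mul_eq_zero.1 h1).resolve_right hvw
    have hb : b = 0 := (mul_eq_zero.1 h2).resolve_right hwv
    apply Subtype.ext
    change a • v + b • w = 0
    rw [ha, hb, zero_smul, zero_smul, add_zero]
  · have hli : LinearIndependent F ![v, w] := by
      rw [LinearIndependent.pair_iff]
      intro a b hab
      have h1 := congrArg (fun x => B x w) hab
      have h2 := congrArg (fun x => B x v) hab
      simp only [map_add, map_smul, LinearMap.add_apply, LinearMap.smul_apply, h.self, smul_eq_mul, mul_zero, add_zero,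
        zero_add, map_zero, LinearMap.zero_apply] at h1 h2
      exact ⟨(mul_eq_zero.1 h1).resolve_right hvw, (mul_eq_zero.1 h2).resolve_right hwv⟩
    have h1 := finrank_span_eq_card hli
    rw [Matrix.range_cons, Matrix.range_cons, Matrix.range_empty, Set.union_empty, Set.singleton_union,
      Fintype.card_fin] at h1
    exact h1

/-- **Elements of odd order in dimension four.** -/
theorem odd_struct [Finite F] (h : Ev B N) (h4 : finrank F V = 4) {g : G} (hg : g ∈ N) {n : ℕ} (hn : Odd n)
    (hgn : g ^ n = 1) (hg1 : g ≠ 1) :
    (∃ a : V →ₗ[F] V, (∀ u v, B (a u) v = B u (a v)) ∧ Irreducible (minpoly F a) ∧ 2 ≤ (minpoly F a).natDegree ∧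
      ∀ v, g • a v = a (g • v)) ∨
    ∃ A : Submodule F V, NAlt (B.restrict A) ∧ (∀ v ∈ A, g • v ∈ A) ∧ finrank F A = 2 ∧
      finrank F (B.orthogonal A) = 2 := by
  have hn0 : 0 < n := hn.pos
  have two := h.two
  -- the linear map
  let T : Module.End F V := (h.le hg : V →ₗ[F] V)
  have hT : ∀ v, T v = g • v := fun v => rfl
  have hTp : ∀ (k : ℕ) (v : V), (T ^ k) v = g ^ k • v := by
    intro k
    induction k with
    | zero => intro v; rw [pow_zero, pow_zero, one_smul]; rfl
    | succ k ih => intro v; rw [pow_succ, pow_succ, Module.End.mul_apply, hT, ih, mul_smul]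
  have hTn : T ^ n = 1 := by
    ext v
    rw [hTp, hgn, one_smul]; rfl
  obtain ⟨a, ha⟩ : ∃ a : Module.End F V, a = aeval T (X + X ^ (n - 1) : F[X]) := ⟨_, rfl⟩
  have hav : ∀ v, a v = g • v + g⁻¹ • v := by
    intro v
    have h1 : g ^ (n - 1) = g⁻¹ := by
      rw [eq_inv_iff_mul_eq_one, ← pow_succ, Nat.sub_add_cancel hn0, hgn]
    rw [ha, map_add, aeval_X, map_pow, aeval_X, LinearMap.add_apply, hT, hTp, h1]
  have hadj : ∀ u v, B (a u) v = B u (a v) := by
    intro u v
    rw [hav, hav, map_add, LinearMap.add_apply, map_add]
    have h1 : B (g • u) v = B u (g⁻¹ • v) := by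
      have := h.isom hg u (g⁻¹ • v)
      rw [smul_inv_smul] at this
      exact this
    have h2 : B (g⁻¹ • u) v = B u (g • v) := by
      have := h.isom hg (g⁻¹ • u) v
      rw [smul_inv_smul] at this
      exact this.symm
    rw [h1, h2, add_comm]
  have hga : ∀ v : V, g • a v = a (g • v) := by
    intro v
    rw [hav, hav, smul_add, inv_smul_smul, smul_inv_smul]
  have hss : T.IsSemisimple := by
    refine Module.End.isSemisimple_of_squarefree_aeval_eq_zero (p := (X ^ n - 1 : F[X])) ?_ ?_
    · apply Separable.squarefree
      have h1 : (n : F) ≠ 0 := by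
        obtain ⟨k, rfl⟩ := hn
        push_cast
        rw [two, zero_mul, zero_add]
        exact one_ne_zero
      have := (separable_X_pow_sub_C (1 : F) h1 one_ne_zero)
      rwa [C_1] at this
    · rw [map_sub, map_pow, aeval_X, map_one, hTn, sub_self]
  have hssa : a.IsSemisimple := by rw [ha]; exact hss.aeval _
  have hsq : Squarefree (minpoly F a) := hssa.minpoly_squarefree
  have hint : IsIntegral F a := Algebra.IsIntegral.isIntegral a
  have hnt : Nontrivial V := Module.nontrivial_of_finrank_pos (R := F) (by rw [h4]; norm_num)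
  have hm1 : minpoly F a ≠ 1 := minpoly.ne_one F a
  have hgeo : ∀ A : Submodule F V, NAlt (B.restrict A) → (∀ v ∈ A, g • v ∈ A) → finrank F A = 2 →
      ∃ A : Submodule F V, NAlt (B.restrict A) ∧ (∀ v ∈ A, g • v ∈ A) ∧ finrank F A = 2 ∧
        finrank F (B.orthogonal A) = 2 := by
    intro A h1 h2 h3
    refine ⟨A, h1, h2, h3, ?_⟩
    have := h.finrank_add A
    omega
  by_cases hirr : Irreducible (minpoly F a)
  · by_cases hdeg : 2 ≤ (minpoly F a).natDegree
    · exact Or.inl ⟨a, hadj, hirr, hdeg, hga⟩
    right
    -- `a` is a scalar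
    have hdeg1 : (minpoly F a).natDegree = 1 := by
      have := minpoly.natDegree_pos hint
      omega
    obtain ⟨t, ht⟩ : ∃ t : F, ∀ v, a v = t • v := by
      have h1 : minpoly F a = X + C ((minpoly F a).coeff 0) := (minpoly.monic hint).eq_X_add_C hdeg1
      have h2 := minpoly.aeval F a
      rw [h1, map_add, aeval_X, aeval_C] at h2
      refine ⟨-(minpoly F a).coeff 0, fun v => ?_⟩
      have h3 := congrArg (fun f : Module.End F V => f v) h2
      rw [Module.algebraMap_end_eq_smul_id] at h3
      change a v + (minpoly F a).coeff 0 • v = 0 at h3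
      rw [neg_smul]
      exact eq_neg_of_add_eq_zero_left h3
    have hgg : ∀ v : V, g • g • v = t • g • v + v := by
      intro v
      have h1 := hav (g • v)
      rw [ht, inv_smul_smul] at h1
      rw [h1]
      have := h.vadd_self v
      rw [add_assoc, this, add_zero]
    obtain ⟨v, hv⟩ : ∃ v, B v (g • v) ≠ 0 := by
      by_contra hcon
      push Not at hcon
      apply hg1
      have hpol : ∀ u w, B u (g • w) = B (g • u) w := by
        intro u w
        have h1 := hcon (u + w)
        rw [smul_add, map_add (B (u + w)), map_add B, LinearMap.add_apply, LinearMap.add_apply, hcon u, hcon w] at h1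
        rw [h.symm (g • u) w]
        linear_combination h1 - B w (g • u) * two
      have hg2 : g ^ 2 = 1 := by
        apply h.ext
        intro v
        rw [pow_two, mul_smul, one_smul, ← sub_eq_zero]
        apply h.nd
        intro u
        rw [h.symm, map_sub, hpol u (g • v), h.isom hg, sub_self]
      obtain ⟨k, hk⟩ := hn
      have h5 : g ^ n = g := by rw [hk, pow_succ, pow_mul, hg2, one_pow, one_mul]
      rw [← h5, hgn]
    obtain ⟨h1, h2⟩ := plane_of_pair h hv
    refine hgeo _ h1 ?_ h2
    intro w hw
    obtain ⟨c, d, rfl⟩ := Submodule.mem_span_pair.1 hw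
    rw [smul_add, h.lin hg, h.lin hg, hgg]
    have e1 : v ∈ Submodule.span F ({v, g • v} : Set V) := Submodule.subset_span (by simp)
    have e2 : g • v ∈ Submodule.span F ({v, g • v} : Set V) := Submodule.subset_span (by simp)
    exact Submodule.add_mem _ (Submodule.smul_mem _ _ e2)
      (Submodule.smul_mem _ _ (Submodule.add_mem _ (Submodule.smul_mem _ _ e2) e1))
  · right
    obtain ⟨b, c, hbc, hb, hc⟩ : ∃ b c : F[X], minpoly F a = b * c ∧ ¬ IsUnit b ∧ ¬ IsUnit c := by
      have h1 : ¬ IsUnit (minpoly F a) := minpoly.not_isUnit F a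
      rw [irreducible_iff] at hirr
      push Not at hirr
      obtain ⟨b, c, h2, h3, h4⟩ := hirr h1
      exact ⟨b, c, h2, h3, h4⟩
    have hcop : IsCoprime b c := by
      rw [hbc] at hsq
      exact (squarefree_mul_iff.1 hsq).1.isCoprime
    obtain ⟨x, y, hxy⟩ := hcop
    have hbc0 : aeval a (b * c) = 0 := by rw [← hbc, minpoly.aeval]
    -- the two kernels
    have horth : ∀ u w, aeval a b u = 0 → aeval a c w = 0 → B u w = 0 := by
      intro u w hu hw
      have h1 : w = aeval a b (aeval a x w) := by
        have h2 := congrArg (fun p => aeval a p w) hxy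
        simp only [map_add, map_mul, map_one, LinearMap.add_apply, Module.End.mul_apply, hw, map_zero, add_zero,
          Module.End.one_apply] at h2
        rw [← Module.End.mul_apply, ← map_mul, mul_comm, map_mul, Module.End.mul_apply]
        exact h2.symm
      rw [h1, ← aeval_adj hadj, hu, map_zero, LinearMap.zero_apply]
    have hdec : ∀ v, ∃ u w, aeval a b u = 0 ∧ aeval a c w = 0 ∧ v = u + w := by
      intro v
      refine ⟨aeval a (y * c) v, aeval a (x * b) v, ?_, ?_, ?_⟩
      · rw [← Module.End.mul_apply, ← map_mul, show b * (y * c) = y * (b * c) by ring, map_mul, hbc0, mul_zero,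
          LinearMap.zero_apply]
      · rw [← Module.End.mul_apply, ← map_mul, show c * (x * b) = x * (b * c) by ring, map_mul, hbc0, mul_zero,
          LinearMap.zero_apply]
      · rw [← LinearMap.add_apply, ← map_add, add_comm, hxy, map_one, Module.End.one_apply]
    have hnz : ∀ {b c : F[X]}, minpoly F a = b * c → ¬ IsUnit b → LinearMap.ker (aeval a b) ≠ ⊥ := by
      intro b c hbc hb hk
      apply hb
      have h1 : aeval a c = 0 := by
        ext v
        have h2 : aeval a b (aeval a c v) = 0 := by
          rw [← Module.End.mul_apply, ← map_mul, ← hbc, minpoly.aeval, LinearMap.zero_apply]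
        exact (LinearMap.ker_eq_bot'.1 hk) _ h2
      have h2 : minpoly F a ∣ c := minpoly.dvd F a h1
      have h3 : minpoly F a ≠ 0 := minpoly.ne_zero hint
      obtain ⟨d, hd⟩ := h2
      have h4 : minpoly F a * (b * d) = minpoly F a * 1 := by
        calc minpoly F a * (b * d) = b * (minpoly F a * d) := by ring
          _ = b * c := by rw [← hd]
          _ = minpoly F a * 1 := by rw [hbc, mul_one]
      exact IsUnit.of_mul_eq_one _ (mul_left_cancel₀ h3 h4)
    obtain ⟨A, hA⟩ : ∃ A, A = LinearMap.ker (aeval a b) := ⟨_, rfl⟩
    obtain ⟨A', hA'⟩ : ∃ A', A' = LinearMap.ker (aeval a c) := ⟨_, rfl⟩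
    have hA0 : A ≠ ⊥ := by rw [hA]; exact hnz hbc hb
    have hA0' : A' ≠ ⊥ := by rw [hA']; exact hnz (hbc.trans (mul_comm b c)) hc
    have hN1 : NAlt (B.restrict A) := by
      refine ⟨fun x => h.self _, fun u hu => ?_⟩
      apply Subtype.ext
      apply h.nd
      intro v
      obtain ⟨u', w', h1, h2, rfl⟩ := hdec v
      have h3 : B (u : V) u' = 0 := hu ⟨u', by rw [hA]; exact h1⟩
      have h4 : B (u : V) w' = 0 := horth u w' (hA.le u.2) h2
      rw [map_add, h3, h4, add_zero]
    have hN2 : NAlt (B.restrict A') := by
      refine ⟨fun x => h.self _, fun u hu => ?_⟩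
      apply Subtype.ext
      apply h.nd
      intro v
      obtain ⟨u', w', h1, h2, rfl⟩ := hdec v
      have h3 : B (u : V) w' = 0 := hu ⟨w', by rw [hA']; exact h2⟩
      have h4 : B (u : V) u' = 0 := by
        rw [h.symm]
        exact horth u' u h1 (hA'.le u.2)
      rw [map_add, h3, h4, add_zero]
    obtain ⟨k, hk⟩ := exists_dim hN1
    obtain ⟨k', hk'⟩ := exists_dim hN2
    have hnA : Nontrivial A := (Submodule.nontrivial_iff_ne_bot).2 hA0
    have hnA' : Nontrivial A' := (Submodule.nontrivial_iff_ne_bot).2 hA0'
    have hp1 : 0 < finrank F A := Module.finrank_pos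
    have hp2 : 0 < finrank F A' := Module.finrank_pos
    have hle : A' ≤ B.orthogonal A := by
      intro w hw
      rw [h.mem_orth]
      intro u hu
      rw [h.symm]
      exact horth u w (by rw [hA] at hu; exact hu) (by rw [hA'] at hw; exact hw)
    have h5 := Submodule.finrank_mono hle
    have h6 := h.finrank_add A
    refine hgeo A hN1 ?_ (by omega)
    intro v hv
    rw [hA, LinearMap.mem_ker] at hv ⊢
    have h7 : ∀ p : F[X], aeval a p (g • v) = g • aeval a p v := by
      intro p
      have h8 : Commute T a := by
        ext w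
        exact hga w
      have h9 : Commute T (aeval a p) := by
        induction p using Polynomial.induction_on' with
        | add p q hp hq => rw [map_add]; exact hp.add_right hq
        | monomial n c =>
          rw [aeval_monomial]
          exact (show Commute T (algebraMap F (Module.End F V) c) from (Algebra.commutes c T).symm).mul_right
            (h8.pow_right n)
      have := congrArg (fun f : Module.End F V => f v) h9.eq
      exact this.symm
    rw [h7, hv, smul_zero]

end

end Cfsg.Agent.H957.RC
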